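import Cfsg.Agent.H81.DP.BtTD4
import Cfsg.Agent.H644.R2.CommL
import Cfsg.Agent.H16.BR.Idx

/-!
# Centralizers of the `p`-singular elements of `³D₄(q)`, `q ≥ 4` (helper830)

`cent_alt` : `8 |C(g)| < q¹⁸`, or `|G : C(g)|` is prime to `p`.
-/

set_option autoImplicit false
set_option linter.unusedSectionVars false
set_option maxHeartbeats 400000

namespace Cfsg.Agent.H830.TD

section Abs

variable {G : Type*} [Group G]

/-- In a finite `p`-group `A ⊔ U' = U` implies `A = U` for `A` normal. -/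
theorem eq_top_of_sup_commutator {U : Type*} [Group U] [Finite U] {p : ℕ} [Fact p.Prime] (hU : IsPGroup p U)
    {A : Subgroup U} [A.Normal] (h : A ⊔ commutator U = ⊤) : A = ⊤ := by
  by_contra hne
  have hnt : Nontrivial (U ⧸ A) := by
    rw [← not_subsingleton_iff_nontrivial]
    intro hs
    refine hne (eq_top_iff.2 fun x _ => ?_)
    exact (QuotientGroup.eq_one_iff x).1 (Subsingleton.elim _ _)
  have hp : IsPGroup p (U ⧸ A) := hU.to_quotient A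
  have hnil : Group.IsNilpotent (U ⧸ A) := hp.isNilpotent
  have h1 := Group.IsSolvable.commutator_lt_top_of_nontrivial (U ⧸ A)
  apply h1.ne
  have h2 : (commutator U).map (QuotientGroup.mk' A) = ⊤ := by
    have h3 : (A ⊔ commutator U).map (QuotientGroup.mk' A) = ⊤ := by
      rw [h, Subgroup.map_top_of_surjective _ (QuotientGroup.mk'_surjective A)]
    rw [Subgroup.map_sup, QuotientGroup.map_mk'_self, bot_sup_eq] at h3
    exact h3
  rw [← h2, commutator_def, commutator_def, Subgroup.map_commutator,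
    Subgroup.map_top_of_surjective _ (QuotientGroup.mk'_surjective A)]

theorem eq_of_sup_commutator [Finite G] {p : ℕ} [Fact p.Prime] {U A : Subgroup G} (hU : IsPGroup p U)
    (hAU : A ≤ U) (hA : ∀ u ∈ U, ∀ a ∈ A, u * a * u⁻¹ ∈ A) (h : U ≤ A ⊔ ⁅U, U⁆) : A = U := by
  have hn : (A.subgroupOf U).Normal := ⟨fun a ha u => hA _ u.2 _ ha⟩
  have h1 : A.subgroupOf U ⊔ commutator U = ⊤ := by
    apply Subgroup.map_injective U.subtype_injective
    rw [Subgroup.map_sup, Subgroup.map_subgroupOf_eq_of_le hAU, commutator_def, Subgroup.map_commutator,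
      ← MonoidHom.range_eq_map, Subgroup.range_subtype]
    refine le_antisymm (sup_le hAU (Subgroup.commutator_le.2 fun a ha b hb => ?_)) h
    rw [commutatorElement_def]
    exact mul_mem (mul_mem (mul_mem ha hb) (inv_mem ha)) (inv_mem hb)
  have h2 := eq_top_of_sup_commutator hU h1
  exact le_antisymm hAU (Subgroup.subgroupOf_eq_top.1 h2)

/-- the elements of `U` all of whose `P`-conjugates are in `C` -/
def core (P C U : Subgroup G) : Subgroup G where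
  carrier := {x | x ∈ U ∧ ∀ g ∈ P, g⁻¹ * x * g ∈ C}
  mul_mem' := by
    rintro a b ⟨ha, ha'⟩ ⟨hb, hb'⟩
    refine ⟨mul_mem ha hb, fun g hg => ?_⟩
    have e : g⁻¹ * (a * b) * g = (g⁻¹ * a * g) * (g⁻¹ * b * g) := by group
    rw [e]
    exact mul_mem (ha' g hg) (hb' g hg)
  one_mem' := ⟨one_mem _, fun g _ => by
    rw [mul_one, inv_mul_cancel]
    exact one_mem _⟩
  inv_mem' := by
    rintro a ⟨ha, ha'⟩
    refine ⟨inv_mem ha, fun g hg => ?_⟩
    have e : g⁻¹ * a⁻¹ * g = (g⁻¹ * a * g)⁻¹ := by group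
    rw [e]
    exact inv_mem (ha' g hg)

theorem mem_core {P C U : Subgroup G} {x : G} : x ∈ core P C U ↔ x ∈ U ∧ ∀ g ∈ P, g⁻¹ * x * g ∈ C := Iff.rfl

theorem le_of_core [Finite G] {p : ℕ} [Fact p.Prime] {P C U : Subgroup G} (hU : IsPGroup p U) (hUP : U ≤ P)
    (h : U ≤ core P C U ⊔ ⁅U, U⁆) : U ≤ C := by
  have h1 : core P C U = U := by
    refine eq_of_sup_commutator hU (fun x hx => hx.1) (fun u hu a ha => ?_) h
    refine ⟨mul_mem (mul_mem hu ha.1) (inv_mem hu), fun g hg => ?_⟩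
    have h2 := ha.2 (u⁻¹ * g) (mul_mem (inv_mem (hUP hu)) hg)
    have e : g⁻¹ * (u * a * u⁻¹) * g = (u⁻¹ * g)⁻¹ * a * (u⁻¹ * g) := by group
    rwa [e]
  intro x hx
  rw [← h1] at hx
  have h2 := hx.2 1 (one_mem _)
  rwa [inv_one, one_mul, mul_one] at h2

theorem conj_of_idx [Finite G] {S : Type*} [Group S] {N : ℕ} (hS : ∀ M : Subgroup S, M ≠ ⊤ → N < M.index)
    (f : S →* G) {P C : Subgroup G} (hf : ∀ s, f s ∈ P) (hi : C.relIndex P ≤ N) {g : G} (hg : g ∈ P)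
    (s : S) : g⁻¹ * f s * g ∈ C := by
  let f' : S →* G := (MulAut.conj g⁻¹).toMonoidHom.comp f
  have e : ∀ s, f' s = g⁻¹ * f s * g := fun s => by
    show MulAut.conj g⁻¹ (f s) = _
    rw [MulAut.conj_apply, inv_inv]
  have h1 : f'.range ≤ P := by
    rintro _ ⟨t, rfl⟩
    rw [e]
    exact mul_mem (mul_mem (inv_mem hg) (hf t)) hg
  have h2 : (C.comap f').index ≤ N := by
    rw [Subgroup.index_comap]
    refine (Subgroup.relIndex_le_of_le_right h1 ?_).trans hi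
    exact Subgroup.index_ne_zero_of_finite
  have h3 : C.comap f' = ⊤ := by
    by_contra h
    exact absurd (hS _ h) (not_lt.2 h2)
  have h4 : s ∈ C.comap f' := by rw [h3]; exact Subgroup.mem_top s
  rw [← e]
  exact h4

end Abs

open CoxeterSystem Cfsg.Agent.ChevalleyStructure.CoxeterGeom Cfsg.Agent.Tits.Roots Cfsg.Agent.Tits.Core
  Cfsg.Agent.Tits.Exchange Cfsg.Agent.Nodes.Reps Cfsg.Agent.Nodes.BNOf Cfsg.Agent.Nodes.StabComb
  Cfsg.Agent.Nodes.Bruhat Cfsg.Agent.Nodes.OppDec Cfsg.Agent.Nodes.LeviDec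
open Cfsg.Agent.Nodes.RGDFoldSL
open Cfsg.Lie Cfsg.Agent.ChevalleyStructure
open Cfsg.Agent.ChevalleyStructure.SL2Hom (up lo mem_closure_SL2)
open Cfsg.Agent.Nodes.RGDTwD4
open Cfsg.Agent.KFacts.TwDFour.Out
open Cfsg.Agent.H866.D4Wf.Frame (cs rgd' GG_top card_X0 card_X1 mem_negX)

variable {K : Type} [Field K] [Fintype K] {q : ℕ} {φ : K →+* K} (hφ : ∀ x, φ x = x ^ q)
  (hK : Fintype.card K = q ^ 3)

theorem sc18' {a b c : K} (ha : a ≠ 0) (hb : b ≠ 0) (hc : c ≠ 0) :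
    Cfsg.Agent.ParSys.Fam.D4.Sc (Elts.hG Cfsg.Agent.Nodes.RGDTwD4.hp.inList 18 a * (Elts.hG Cfsg.Agent.Nodes.RGDTwD4.hp.inList 13 b *
      (Elts.hG Cfsg.Agent.Nodes.RGDTwD4.hp.inList 12 c * 1))) 14 (a⁻¹ * (b⁻¹ * (c⁻¹ * 1))) := by
  have h0 : ∀ {d : K}, d ≠ 0 → ∀ s < 24, Cfsg.Agent.ParSys.Fam.D4.Sc (Elts.hG Cfsg.Agent.Nodes.RGDTwD4.hp.inList 18 d) s
      (d ^ chevD4.cartan 0 s) := by
    intro d hd s hs
    have := Cfsg.Agent.ParSys.Fam.D4.sc_hG (K := K) (j := 0) (s := s)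
      (by rw [Cfsg.Agent.ParSys.Fam.D4.rank4]; norm_num) (by rw [Cfsg.Agent.ParSys.Fam.D4.nroots24]; exact hs) hd
    rwa [Cfsg.Agent.ParSys.Fam.D4.simples.1] at this
  have h2 : ∀ {d : K}, d ≠ 0 → ∀ s < 24, Cfsg.Agent.ParSys.Fam.D4.Sc (Elts.hG Cfsg.Agent.Nodes.RGDTwD4.hp.inList 13 d) s
      (d ^ chevD4.cartan 2 s) := by
    intro d hd s hs
    have := Cfsg.Agent.ParSys.Fam.D4.sc_hG (K := K) (j := 2) (s := s)
      (by rw [Cfsg.Agent.ParSys.Fam.D4.rank4]; norm_num) (by rw [Cfsg.Agent.ParSys.Fam.D4.nroots24]; exact hs) hd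
    rwa [Cfsg.Agent.ParSys.Fam.D4.simples.2.2.1] at this
  have h3 : ∀ {d : K}, d ≠ 0 → ∀ s < 24, Cfsg.Agent.ParSys.Fam.D4.Sc (Elts.hG Cfsg.Agent.Nodes.RGDTwD4.hp.inList 12 d) s
      (d ^ chevD4.cartan 3 s) := by
    intro d hd s hs
    have := Cfsg.Agent.ParSys.Fam.D4.sc_hG (K := K) (j := 3) (s := s)
      (by rw [Cfsg.Agent.ParSys.Fam.D4.rank4]; norm_num) (by rw [Cfsg.Agent.ParSys.Fam.D4.nroots24]; exact hs) hd
    rwa [Cfsg.Agent.ParSys.Fam.D4.simples.2.2.2] at this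
  have := (h0 ha 14 (by norm_num)).mul ((h2 hb 14 (by norm_num)).mul ((h3 hc 14 (by norm_num)).mul
    (Cfsg.Agent.ParSys.Fam.D4.Sc.one 14)))
  rwa [Cfsg.Agent.ParSys.Fam.D4.carts.2.1.1, Cfsg.Agent.ParSys.Fam.D4.carts.2.1.2.2.1,
    Cfsg.Agent.ParSys.Fam.D4.carts.2.1.2.2.2, zpow_neg_one, zpow_neg_one, zpow_neg_one] at this

theorem coe_hS1' (d : KD φ 1) : ((PhiD hφ hK 1 (hS d) : ↥(twistedD4 K q)) : GL chevD4.Idx K) =
    Elts.hG Cfsg.Agent.Nodes.RGDTwD4.hp.inList 18 (d : K) * (Elts.hG Cfsg.Agent.Nodes.RGDTwD4.hp.inList 13 (φ (d : K)) *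
      (Elts.hG Cfsg.Agent.Nodes.RGDTwD4.hp.inList 12 (φ (φ (d : K))) * 1)) := by
  show hv (psi Cfsg.Agent.Nodes.RGDTwD4.hp.inList K) φ [18, 13, 12] (Matrix.SpecialLinearGroup.map (Fx φ _).subtype (hS d)) = _
  rw [map_hS]
  show psi Cfsg.Agent.Nodes.RGDTwD4.hp.inList K 18 (hS (d : K)) * (psi Cfsg.Agent.Nodes.RGDTwD4.hp.inList K 13
    (Matrix.SpecialLinearGroup.map φ (hS (d : K))) * (psi Cfsg.Agent.Nodes.RGDTwD4.hp.inList K 12
      (Matrix.SpecialLinearGroup.map φ (Matrix.SpecialLinearGroup.map φ (hS (d : K)))) * 1)) = _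
  rw [map_hS, map_hS, psi_hS _ (by rw [Cfsg.Agent.ParSys.Fam.D4.nroots24]; norm_num),
    psi_hS _ (by rw [Cfsg.Agent.ParSys.Fam.D4.nroots24]; norm_num),
    psi_hS _ (by rw [Cfsg.Agent.ParSys.Fam.D4.nroots24]; norm_num)]

theorem ch10 (d : KD φ 1) (hd : d ≠ 0) : (chD hφ hK 0 (PhiD hφ hK 1 (hS d)) : K) =
    (d : K)⁻¹ * ((φ (d : K))⁻¹ * ((φ (φ (d : K)))⁻¹ * 1)) := by
  have hd' : (d : K) ≠ 0 := fun h => hd (Subtype.ext h)
  have hd2 : φ (d : K) ≠ 0 := (map_ne_zero φ).2 hd'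
  have hd3 : φ (φ (d : K)) ≠ 0 := (map_ne_zero φ).2 hd2
  have h2 := sc18' (K := K) hd' hd2 hd3 1
  have e := coe_hS1' hφ hK d
  rw [← e, mul_one ((d : K)⁻¹ * _)] at h2
  generalize (d : K)⁻¹ * ((φ (d : K))⁻¹ * ((φ (φ (d : K)))⁻¹ * 1)) = c at h2 ⊢
  exact chD_eq hφ hK 0 (PhiD_hS hφ hK 1 d hd) h2

/-- an element of norm `≠ 1` -/
theorem exists_norm_ne (hφ : ∀ x, φ x = x ^ q) (hK : Fintype.card K = q ^ 3) (h3 : 3 ≤ q) :
    ∃ d : K, d ≠ 0 ∧ d⁻¹ * ((φ d)⁻¹ * ((φ (φ d))⁻¹ * 1)) ≠ 1 := by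
  classical
  obtain ⟨g, hg⟩ := IsCyclic.exists_generator (α := Kˣ)
  have h2 : orderOf g = Fintype.card Kˣ := orderOf_eq_card_of_forall_mem_zpowers hg |>.trans Nat.card_eq_fintype_card
  refine ⟨g, g.ne_zero, fun h => ?_⟩
  have h4 : ((g : K) ^ (1 + q + q * q))⁻¹ = 1 := by
    rw [← h, hφ, hφ, ← pow_mul, pow_add, pow_add, pow_one, mul_inv, mul_inv]
    ring
  have h5 : g ^ (1 + q + q * q) = 1 := by
    apply Units.ext
    rw [Units.val_pow_eq_pow_val, Units.val_one]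
    exact inv_eq_one.1 h4
  have h6 := orderOf_dvd_of_pow_eq_one h5
  rw [h2, Fintype.card_units, hK] at h6
  have h7 := Nat.le_of_dvd (by positivity) h6
  have h8 : 3 * (q * q) ≤ q ^ 3 := by
    rw [pow_succ', pow_two]
    exact Nat.mul_le_mul_right _ h3
  have h9 : 3 * q ≤ q * q := Nat.mul_le_mul_right _ h3
  omega

theorem Phi_mem_P (i : Fin 2) (s : Matrix.SpecialLinearGroup (Fin 2) (KD φ i)) :
    PhiD hφ hK i s ∈ PJ cs isCartan (T K q) (X φ q) {i} := by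
  have h1 : Subgroup.closure (Set.range (up (F := KD φ i)) ∪ Set.range (lo (F := KD φ i))) ≤
      (PJ cs isCartan (T K q) (X φ q) {i}).comap (PhiD hφ hK i) := by
    rw [Subgroup.closure_le]
    have hr : sr i ∈ RootsJ cs isCartan {i} := ⟨isRoot_sr cs isCartan i, fun k hk => by
      simp only [Set.mem_singleton_iff] at hk
      simp [sr, hk]⟩
    rintro _ (⟨a, rfl⟩ | ⟨a, rfl⟩)
    · exact LJ_le_PJ (X_le_LJ hr ((mem_X hφ hK i _).2 ⟨a, rfl⟩))
    · exact LJ_le_PJ (X_le_LJ (RootsJ.neg hr) ((mem_negX hK hφ i _).2 ⟨a, rfl⟩))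
  exact h1 (mem_closure_SL2 s)

include hφ hK in
/-- **The unipotent group is contained in every subgroup of index at most `q³` of the parabolic subgroup.** -/
theorem U_le_of_idx {p : ℕ} [Fact p.Prime] [CharP K p] (h4 : 4 ≤ q)
    {C : Subgroup ↥(twistedD4 K q)} (hi : C.relIndex (PJ cs isCartan (T K q) (X φ q) {1}) ≤ q ^ 3) :
    RGD.Sup (X φ q) (RGD.Pos cs isCartan) ≤ C := by
  have hfin : Finite CoxeterMatrix.G₂.Group := Cfsg.Agent.Nodes.RGDFold.finite_W (hp := Cfsg.Agent.Nodes.RGDTwD4.hp) cs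
    isCartan foldData
  have R := rgd' hK hφ p
  set P := PJ cs isCartan (T K q) (X φ q) {1} with hP
  set U := RGD.Sup (X φ q) (RGD.Pos cs isCartan) with hU
  have hUP : U ≤ P := RGD.U_le_B.trans B_le_PJ
  let _ : Fintype (KD φ 1) := Fintype.ofFinite _
  have hcF : Fintype.card (KD φ 1) = q ^ 3 := by
    rw [← Nat.card_eq_fintype_card, F3_eq_top hK hφ]
    rw [Nat.card_congr Subfield.topEquiv.toEquiv, Nat.card_eq_fintype_card, hK]
  have h64 : 64 ≤ q ^ 3 := by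
    calc 64 = 4 ^ 3 := by norm_num
      _ ≤ q ^ 3 := Nat.pow_le_pow_left h4 3
  have key : ∀ s, ∀ g ∈ P, g⁻¹ * PhiD hφ hK 1 s * g ∈ C := fun s g hg =>
    conj_of_idx (N := q ^ 3) (fun M hM => by
      rw [← hcF]
      exact H16.BR.idx_sl_two (by rw [hcF]; omega) hM) (PhiD hφ hK 1) (Phi_mem_P hφ hK 1) hi hg s
  -- the two simple root groups
  have hX1 : X φ q (sr 1) ≤ core P C U := by
    intro x hx
    refine ⟨RGD.le_Sup (S := RGD.Pos cs isCartan) ⟨isRoot_sr cs isCartan 1, sr_nonneg 1⟩ hx, ?_⟩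
    obtain ⟨a, rfl⟩ := (mem_X hφ hK 1 x).1 hx
    exact key _
  have hX0 : X φ q (sr 0) ≤ core P C U := by
    obtain ⟨d, hd, hc⟩ := exists_norm_ne hφ hK (by omega : 3 ≤ q)
    have hd' : d ∈ KD φ 1 := by rw [F3_eq_top hK hφ]; exact Subfield.mem_top d
    have hd0 : (⟨d, hd'⟩ : KD φ 1) ≠ 0 := fun h => hd (congrArg Subtype.val h)
    set t := PhiD hφ hK 1 (hS ⟨d, hd'⟩) with ht
    have htT : t ∈ T K q := PhiD_hS hφ hK 1 _ hd0
    have hch : (chD hφ hK 0 t : K) ≠ 1 := by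
      rw [ht, ch10 hφ hK _ hd0]
      exact hc
    have hch' : chD hφ hK 0 t - 1 ≠ 0 := fun h => hch (congrArg Subtype.val (sub_eq_zero.1 h))
    intro x hx
    have hxU : x ∈ U := RGD.le_Sup (S := RGD.Pos cs isCartan) ⟨isRoot_sr cs isCartan 0, sr_nonneg 0⟩ hx
    refine ⟨hxU, fun g hg => ?_⟩
    obtain ⟨b, rfl⟩ := (mem_X hφ hK 0 x).1 hx
    have hC := coordD hφ hK 0
    set a := b / (chD hφ hK 0 t - 1) with ha
    have hb : chD hφ hK 0 t * a = b + a := by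
      have h1 : (chD hφ hK 0 t - 1) * a = b := mul_div_cancel₀ b hch'
      linear_combination h1
    set y := PhiD hφ hK 0 (up a) with hy
    have hyU : y ∈ U := RGD.le_Sup (S := RGD.Pos cs isCartan) ⟨isRoot_sr cs isCartan 0, sr_nonneg 0⟩
      ((mem_X hφ hK 0 _).2 ⟨a, rfl⟩)
    have h1 : t * y * t⁻¹ = PhiD hφ hK 0 (up b) * y := by
      have h2 := hC.act t htT a
      rw [hb, hC.add] at h2
      exact h2
    have h2 : PhiD hφ hK 0 (up b) = t * y * t⁻¹ * y⁻¹ := by rw [h1, mul_inv_cancel_right]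
    have e : g⁻¹ * PhiD hφ hK 0 (up b) * g = (g⁻¹ * t * g) * ((y⁻¹ * g)⁻¹ * t * (y⁻¹ * g))⁻¹ := by
      rw [h2]; group
    rw [e]
    exact mul_mem (key _ g hg) (inv_mem (key _ _ (mul_mem (inv_mem (hUP hyU)) hg)))
  refine le_of_core R.isPGroup_Upos hUP (RGD.Sup_le fun r hr => ?_)
  by_cases hs : ∃ i, r = sr i
  · obtain ⟨i, rfl⟩ := hs
    have h01 : i = 0 ∨ i = 1 := by fin_cases i <;> simp
    rcases h01 with rfl | rfl
    · exact le_sup_of_le_left hX0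
    · exact le_sup_of_le_left hX1
  · push Not at hs
    exact le_sup_of_le_right (Cfsg.Agent.H644.R2.CommL.commGen_D4 hK hφ r hr.1 hr.2 hs)

include hφ hK in
theorem card_P {r : ℕ} [hr : Fact r.Prime] [CharP K r] (hq : IsPrimePow q) (i : Fin 2) :
    Nat.card ↥(PJ cs isCartan (T K q) (X φ q) {i}) =
      q ^ 12 * ((Nat.card ↥(X φ q (sr i)) + 1) * ((q ^ 3 - 1) * (q - 1))) := by
  have hfin : Finite CoxeterMatrix.G₂.Group := Cfsg.Agent.Nodes.RGDFold.finite_W (hp := Cfsg.Agent.Nodes.RGDTwD4.hp) cs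
    isCartan foldData
  have R := rgd' hK hφ r
  have hG1 : Nodes.RGDLib.G1 cs isCartan (X φ q) = ⊤ := G1_eq_top cs hK hφ
  have hG : GG cs isCartan (T K q) (X φ q) = ⊤ := KFacts.RgdFilt.GG_eq_top hG1
  have hq1 := hq.one_lt
  have hcard' := S1067.result hq hK
  have hN' := H115.HC.Two.card_PJ R i
  have hT := H69.OutTwD4.card_T hq hK
  have hrq : r ∣ q := by
    obtain ⟨p, k, hp, hk, hpk⟩ := hq
    have hp' := hp.nat_prime
    have h1 : r ∣ Fintype.card K := by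
      rw [← CharP.cast_eq_zero_iff K r, FiniteField.cast_card_eq_zero]
    rw [hK] at h1
    exact hr.out.dvd_of_dvd_pow h1
  have hsub : ∀ k, k ≠ 0 → ¬ r ∣ q ^ k - 1 := by
    intro k hk h3
    have h4 : r ∣ q ^ k := dvd_pow hrq hk
    have h5 : 1 ≤ q ^ k := Nat.one_le_pow _ _ (by omega)
    have h6 := Nat.dvd_sub h4 h3
    rw [Nat.sub_sub_self h5] at h6
    exact hr.1.one_lt.ne' (Nat.dvd_one.1 h6)
  have hP : ¬ r ∣ (q ^ 2 - 1) * (q ^ 6 - 1) * (q ^ 8 + q ^ 4 + 1) := by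
    rw [hr.1.dvd_mul, hr.1.dvd_mul]
    rintro ((h3 | h3) | h3)
    · exact hsub 2 (by norm_num) h3
    · exact hsub 6 (by norm_num) h3
    · have h4 : r ∣ q ^ 8 + q ^ 4 := dvd_add (dvd_pow hrq (by norm_num)) (dvd_pow hrq (by norm_num))
      exact hr.1.one_lt.ne' (Nat.dvd_one.1 ((Nat.dvd_add_right h4).1 h3))
  obtain ⟨p, k, hp, hk, hpk⟩ := id hq
  have hpr : p = r := by
    have hp' := hp.nat_prime
    rw [← hpk] at hrq
    exact ((Nat.prime_dvd_prime_iff_eq hr.out hp').1 (hr.out.dvd_of_dvd_pow hrq)).symm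
  rw [hpr] at hpk
  have h6 := H35.ExcIdx.index_eq R hG hN' (d := 1) (fun h => hr.1.one_lt.ne' (Nat.dvd_one.1 h))
    (t := (q ^ 3 - 1) * (q - 1)) (by rw [one_mul, hT])
    (P := (q ^ 2 - 1) * (q ^ 6 - 1) * (q ^ 8 + q ^ 4 + 1)) (b := k * 12) (by
      rw [one_mul, hcard', pow_mul, hpk]
      ring) hP
  have hi0 : 0 < (PJ cs isCartan (T K q) (X φ q) {i}).index := Nat.pos_of_ne_zero Subgroup.index_ne_zero_of_finite
  exact H81.DP.arith_aux hi0 h6 (by rw [Subgroup.card_mul_index, hcard'])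

theorem num0 {q c : ℕ} (h4 : 4 ≤ q) (h : c * 2 ≤ q ^ 12 * ((q + 1) * ((q ^ 3 - 1) * (q - 1)))) :
    17 * c < 2 * q ^ 18 := by
  rcases Nat.eq_or_lt_of_le h4 with rfl | h4
  · norm_num at h
    norm_num
    omega
  obtain ⟨m, rfl⟩ : ∃ m, q = m + 1 := ⟨q - 1, by omega⟩
  have e1 : m + 1 - 1 = m := by omega
  rw [e1] at h
  have h2 : (m + 1) ^ 3 - 1 < (m + 1) ^ 3 := Nat.sub_lt (by positivity) one_pos
  have h3 : (m + 1 + 1) * m < (m + 1) ^ 2 := by nlinarith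
  have h5 : (m + 1 + 1) * (((m + 1) ^ 3 - 1) * m) ≤ (m + 1) ^ 2 * ((m + 1) ^ 3 - 1) := by
    calc (m + 1 + 1) * (((m + 1) ^ 3 - 1) * m) = ((m + 1 + 1) * m) * ((m + 1) ^ 3 - 1) := by ring
      _ ≤ _ := Nat.mul_le_mul_right _ h3.le
  have h6 : (m + 1) ^ 2 * ((m + 1) ^ 3 - 1) < (m + 1) ^ 2 * (m + 1) ^ 3 := Nat.mul_lt_mul_of_pos_left h2 (by positivity)
  have h7 : c * 2 < (m + 1) ^ 12 * ((m + 1) ^ 2 * (m + 1) ^ 3) :=
    lt_of_le_of_lt h (Nat.mul_lt_mul_of_pos_left (lt_of_le_of_lt h5 h6) (by positivity))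
  have h8 : 5 * ((m + 1) ^ 12 * ((m + 1) ^ 2 * (m + 1) ^ 3)) ≤ (m + 1) ^ 18 := by
    calc 5 * ((m + 1) ^ 12 * ((m + 1) ^ 2 * (m + 1) ^ 3)) ≤ (m + 1) * ((m + 1) ^ 12 * ((m + 1) ^ 2 * (m + 1) ^ 3)) :=
        Nat.mul_le_mul_right _ h4
      _ = (m + 1) ^ 18 := by ring
  omega

theorem num1 {q c : ℕ} (h4 : 4 ≤ q) (h : c * q ^ 3 ≤ q ^ 12 * ((q ^ 3 + 1) * ((q ^ 3 - 1) * (q - 1)))) :
    17 * c < 2 * q ^ 18 := by
  have h0 : 1 ≤ q ^ 3 := Nat.one_le_pow _ _ (by omega)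
  obtain ⟨m, rfl⟩ : ∃ m, q = m + 1 := ⟨q - 1, by omega⟩
  have e1 : m + 1 - 1 = m := by omega
  rw [e1] at h
  have h2 : ((m + 1) ^ 3 + 1) * ((m + 1) ^ 3 - 1) ≤ (m + 1) ^ 3 * (m + 1) ^ 3 := by
    obtain ⟨k, hk⟩ : ∃ k, (m + 1) ^ 3 = k + 1 := ⟨(m + 1) ^ 3 - 1, by omega⟩
    rw [hk]
    have : k + 1 - 1 = k := by omega
    rw [this]
    nlinarith
  have h3 : ((m + 1) ^ 3 + 1) * (((m + 1) ^ 3 - 1) * m) ≤ (m + 1) ^ 3 * ((m + 1) ^ 3 * m) := by
    calc ((m + 1) ^ 3 + 1) * (((m + 1) ^ 3 - 1) * m) = (((m + 1) ^ 3 + 1) * ((m + 1) ^ 3 - 1)) * m := by ring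
      _ ≤ ((m + 1) ^ 3 * (m + 1) ^ 3) * m := Nat.mul_le_mul_right _ h2
      _ = _ := by ring
  have h5 : c * (m + 1) ^ 3 ≤ (m + 1) ^ 15 * m * (m + 1) ^ 3 := by
    refine h.trans ((Nat.mul_le_mul_left _ h3).trans (le_of_eq ?_))
    ring
  have h6 : c ≤ (m + 1) ^ 15 * m := Nat.le_of_mul_le_mul_right h5 (by positivity)
  have h7 : (m + 1) ^ 15 * m < (m + 1) ^ 15 * (m + 1) := Nat.mul_lt_mul_of_pos_left (Nat.lt_succ_self m) (by positivity)
  have h8 : 9 * ((m + 1) ^ 15 * (m + 1)) ≤ (m + 1) ^ 18 := by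
    have h9 : 9 ≤ (m + 1) ^ 2 := by nlinarith
    calc 9 * ((m + 1) ^ 15 * (m + 1)) ≤ (m + 1) ^ 2 * ((m + 1) ^ 15 * (m + 1)) := Nat.mul_le_mul_right _ h9
      _ = (m + 1) ^ 18 := by ring
  omega

/-- **The alternative.** -/
theorem cent_alt17 {K : Type} [Field K] [Fintype K] {q p : ℕ} [hpf : Fact p.Prime] [CharP K p] (hq : IsPrimePow q)
    (hK : Fintype.card K = q ^ 3) (h4 : 4 ≤ q) (g : ↥(twistedD4 K q)) (hp : p ∣ orderOf g) :
    17 * Nat.card (Subgroup.centralizer {g}) < 2 * q ^ 18 ∨ ¬ p ∣ (Subgroup.centralizer {g}).index := by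
  obtain ⟨φ, hφ⟩ := D4Fixed.exists_frob hq hK
  have hfin : Finite CoxeterMatrix.G₂.Group := Cfsg.Agent.Nodes.RGDFold.finite_W (hp := Cfsg.Agent.Nodes.RGDTwD4.hp) cs
    isCartan foldData
  have R := rgd' hK hφ p
  have hG1 : Nodes.RGDLib.G1 cs isCartan (X φ q) = ⊤ := G1_eq_top cs hK hφ
  have hG : GG cs isCartan (T K q) (X φ q) = ⊤ := KFacts.RgdFilt.GG_eq_top hG1
  have hF := KFacts.RgdFiltTwAll.filt_fold cs isCartan foldData (foldGrp hφ (D4Fixed.twisted_le_fix hK hφ)) p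
  -- the element of order `p`
  have hu : orderOf (g ^ (orderOf g / p)) = p := orderOf_pow_orderOf_div (orderOf_pos g).ne' hp
  set u := g ^ (orderOf g / p) with hudef
  have hV : IsPGroup p ↥(Subgroup.zpowers u) := IsPGroup.of_card (n := 1) (by rw [Nat.card_zpowers, hu, pow_one])
  have hne : Subgroup.zpowers u ≠ ⊥ := by
    rw [Ne, Subgroup.zpowers_eq_bot]
    intro h
    rw [h, orderOf_one] at hu
    exact hpf.out.one_lt.ne hu
  have hCN : Subgroup.centralizer {g} ≤ Subgroup.normalizer (Subgroup.zpowers u : Set ↥(twistedD4 K q)) := by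
    rw [Subgroup.le_normalizer_iff]
    intro c hc k hk
    have h1 : c * k = k * c := by
      rw [Subgroup.mem_centralizer_singleton_iff] at hc
      have h2 : Commute c g := hc
      obtain ⟨m, rfl⟩ := Subgroup.mem_zpowers_iff.1 hk
      exact ((h2.pow_right _).zpow_right m).eq
    rw [h1, mul_inv_cancel_right]
    exact hk
  obtain ⟨x, J, hJ, -, hN⟩ := KFacts.RgdFilt.borel_tits_of_filt hF hG1 hV hne
  obtain ⟨i, hi⟩ : ∃ i : Fin 2, J ⊆ {i} := by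
    by_contra hcon
    push Not at hcon
    apply hJ
    rw [Set.eq_univ_iff_forall]
    intro j
    by_contra hj
    obtain ⟨k, hk, hk'⟩ := Set.not_subset.1 (hcon (1 - j))
    apply hk'
    rw [Set.mem_singleton_iff]
    have : k ≠ j := fun h => hj (h ▸ hk)
    fin_cases j <;> fin_cases k <;> first | rfl | exact absurd rfl this
  have hPJ : PJ cs isCartan (T K q) (X φ q) J ≤ PJ cs isCartan (T K q) (X φ q) {i} :=
    Cfsg.Agent.BiChar.RankPar.PJ_mono hi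
  have hcP := card_P hφ hK (r := p) hq i
  set P := PJ cs isCartan (T K q) (X φ q) {i} with hPdef
  set C := cj x⁻¹ (Subgroup.centralizer {g}) with hCdef
  have hCP : C ≤ P := by
    intro y hy
    rw [hCdef, mem_cj] at hy
    have h1 := hPJ ((mem_cj ..).1 (hN (hCN hy)))
    have e : x⁻¹ * (x⁻¹⁻¹ * y * x⁻¹) * x = y := by group
    rwa [e] at h1
  have hcC : Nat.card ↥C = Nat.card (Subgroup.centralizer {g}) := Nodes.CardSup.card_cj _
  have hiC : C.index = (Subgroup.centralizer {g}).index := by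
    have h1 := Subgroup.card_mul_index C
    have h2 := Subgroup.card_mul_index (Subgroup.centralizer {g})
    rw [← h2, ← hcC] at h1
    exact Nat.eq_of_mul_eq_mul_left Nat.card_pos h1
  rw [← hcC, ← hiC]
  -- the index of `U`
  have hUi : ¬ p ∣ (RGD.Sup (X φ q) (RGD.Pos cs isCartan)).index := by
    have h4 := KFacts.RgdSyl.not_dvd_relIndex R
    rwa [hG, Subgroup.relIndex_top_right] at h4
  have hUC : RGD.Sup (X φ q) (RGD.Pos cs isCartan) ≤ C → ¬ p ∣ C.index := fun h h1 =>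
    hUi (h1.trans (Subgroup.index_dvd_of_le h))
  have hrel : Nat.card ↥C * C.relIndex P = Nat.card ↥P := by
    have h2 := Subgroup.relIndex_mul_relIndex ⊥ _ _ bot_le hCP
    rwa [Subgroup.relIndex_bot_left, Subgroup.relIndex_bot_left] at h2
  have h01 : i = 0 ∨ i = 1 := by fin_cases i <;> simp
  rcases h01 with rfl | rfl
  · by_cases h1 : C.relIndex P ≤ 1
    · right
      apply hUC
      have h2 : C.relIndex P = 1 := le_antisymm h1 (Nat.one_le_iff_ne_zero.2 (Subgroup.index_ne_zero_of_finite))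
      exact (RGD.U_le_B.trans B_le_PJ).trans (Subgroup.relIndex_eq_one.1 h2)
    · left
      apply num0 h4
      rw [card_X0 hK hφ hq] at hcP
      rw [← hcP, ← hrel]
      exact Nat.mul_le_mul_left _ (by omega)
  · by_cases h1 : C.relIndex P ≤ q ^ 3
    · right
      exact hUC (U_le_of_idx hφ hK (p := p) h4 h1)
    · left
      apply num1 h4
      rw [card_X1 hK hφ] at hcP
      rw [← hcP, ← hrel]
      exact Nat.mul_le_mul_left _ (by omega)

theorem cent_alt {K : Type} [Field K] [Fintype K] {q p : ℕ} [hpf : Fact p.Prime] [CharP K p] (hq : IsPrimePow q)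
    (hK : Fintype.card K = q ^ 3) (h4 : 4 ≤ q) (g : ↥(twistedD4 K q)) (hp : p ∣ orderOf g) :
    8 * Nat.card (Subgroup.centralizer {g}) < q ^ 18 ∨ ¬ p ∣ (Subgroup.centralizer {g}).index :=
  (cent_alt17 hq hK h4 g hp).imp_left fun h => by omega

end Cfsg.Agent.H830.TD
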