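import Cfsg.Agent.H501.PSq.TdSmall

/-!
# Two classes of the same prime order in the torus of order `q⁴ - q² + 1` of `³D₄(q)` (helper830)
-/

set_option autoImplicit false
set_option linter.unusedSectionVars false

open Cfsg Cfsg.Lie

namespace Cfsg.Agent.H830.TD

open Cfsg.Agent.H33
open Cfsg.Agent.Nodes
open Cfsg.Agent.Characters Cfsg.Agent.Characters.CCBasic Cfsg.Agent.Characters.CCEstimates

universe u

theorem prime_ne_five {q r : ℕ} (hr : r.Prime) (h : r ∣ q ^ 4 - q ^ 2 + 1) : r ≠ 5 := by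
  rintro rfl
  have hq : q ^ 2 ≤ q ^ 4 := by
    rcases Nat.eq_zero_or_pos q with rfl | h0
    · norm_num
    · exact Nat.pow_le_pow_right h0 (by norm_num)
  have h1 : 5 ∣ q ^ 4 + 1 - q ^ 2 := by
    have e : q ^ 4 + 1 - q ^ 2 = q ^ 4 - q ^ 2 + 1 := by omega
    rw [e]
    exact h
  have h2 : (q ^ 4 + 1) % 5 = q ^ 2 % 5 := by omega
  have h3 : q % 5 < 5 := Nat.mod_lt _ (by norm_num)
  rw [Nat.add_mod, Nat.pow_mod, Nat.pow_mod q 2] at h2
  interval_cases q % 5 <;> omega

/-- In a CC-subgroup `A` with `|N(A) : A| = 4` not all elements `≠ 1` of a subgroup of order `≥ 6` are conjugate. -/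
theorem exists_not_conj {G : Type u} [Group G] [Finite G] {A : Subgroup G} (hA : IsCC A) (h4 : len A = 4)
    {x : G} (hx : x ∈ A) (hx1 : x ≠ 1) {Z : Subgroup G} (hZ : Z ≤ A) (hc : 6 ≤ Nat.card Z) :
    ∃ y ∈ Z, y ≠ 1 ∧ ¬ IsConj x y⁻¹ := by
  classical
  by_contra hcon
  push Not at hcon
  have hall : ∀ z : {z : Z // z ≠ 1}, ∃ g : Subgroup.normalizer (A : Set G), (g : G) * x * (g : G)⁻¹ = (z.1 : G) := by
    intro z
    have hz1 : ((z.1 : G))⁻¹ ≠ 1 := fun h => z.2 (Subtype.ext (inv_eq_one.1 h))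
    have h1 := hcon _ (inv_mem z.1.2) hz1
    rw [inv_inv, isConj_iff] at h1
    obtain ⟨g, hg⟩ := h1
    exact ⟨⟨g, hA.ti hx hx1 (by rw [hg]; exact hZ z.1.2)⟩, hg⟩
  choose g hg using hall
  let f : {z : Z // z ≠ 1} → Subgroup.normalizer (A : Set G) ⧸ A.subgroupOf (Subgroup.normalizer (A : Set G)) :=
    fun z => QuotientGroup.mk (g z)
  have hf : Function.Injective f := by
    intro z z' h
    have h1 : (g z)⁻¹ * g z' ∈ A.subgroupOf (Subgroup.normalizer (A : Set G)) := QuotientGroup.eq.1 h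
    rw [Subgroup.mem_subgroupOf] at h1
    have h2 : ((g z : G))⁻¹ * (g z' : G) ∈ A := h1
    have h3 := hA.comm h2 hx
    apply Subtype.ext
    apply Subtype.ext
    rw [← hg z, ← hg z']
    have e : (g z' : G) = (g z : G) * (((g z : G))⁻¹ * (g z' : G)) := by group
    calc (g z : G) * x * (g z : G)⁻¹ = (g z : G) * (x * (((g z : G))⁻¹ * (g z' : G))) * (((g z : G))⁻¹ * (g z' : G))⁻¹ *
          (g z : G)⁻¹ := by group
      _ = (g z : G) * ((((g z : G))⁻¹ * (g z' : G)) * x) * (((g z : G))⁻¹ * (g z' : G))⁻¹ * (g z : G)⁻¹ := by rw [h3]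
      _ = (g z' : G) * x * (g z' : G)⁻¹ := by group
  have h1 := Nat.card_le_card_of_injective f hf
  have h2 : Nat.card (Subgroup.normalizer (A : Set G) ⧸ A.subgroupOf (Subgroup.normalizer (A : Set G))) = 4 := by
    have h5 := Subgroup.relIndex_mul_relIndex ⊥ A _ bot_le (Subgroup.le_normalizer (H := A))
    rw [Subgroup.relIndex_bot_left, Subgroup.relIndex_bot_left, ← len_mul_card A, h4, mul_comm] at h5
    exact Nat.eq_of_mul_eq_mul_right Nat.card_pos h5
  have h3 : Nat.card {z : Z // z ≠ 1} + 1 = Nat.card Z := by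
    have h6 := Nat.card_congr (Equiv.Set.sumCompl ({1} : Set Z))
    rw [Nat.card_sum] at h6
    have h7 : Nat.card ↥({1} : Set Z) = 1 := by simp
    have h8 : Nat.card ↥(({1} : Set Z)ᶜ) = Nat.card {z : Z // z ≠ 1} := rfl
    omega
  omega

/-- **The pair of classes.** -/
theorem exists_pair {K : Type} [Field K] [Fintype K] {q : ℕ} (hq : IsPrimePow q) (hK : Fintype.card K = q ^ 3)
    (_h4 : 4 ≤ q) : ∃ (A : Subgroup ↥(twistedD4 K q)) (x y : ↥(twistedD4 K q)), Nat.card ↥A = q ^ 4 - q ^ 2 + 1 ∧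
      Cfsg.Agent.Characters.CCBasic.IsCC A ∧ Cfsg.Agent.Characters.CCEstimates.len A = 4 ∧ x ∈ A ∧ y ∈ A ∧
      (orderOf x).Prime ∧ 7 ≤ orderOf x ∧ orderOf y = orderOf x ∧ ¬ IsConj x y⁻¹ := by
  classical
  obtain ⟨p, hch⟩ := CharP.exists K
  have hpf : Fact p.Prime := ⟨CharP.char_is_prime K p⟩
  have hfin : Finite ↥(twistedD4 K q) := inferInstance
  have := Fintype.ofFinite ↥(twistedD4 K q)
  obtain ⟨x0, hx0, hx0c, -⟩ := H83.TorD4.exists_x0 hq hK p
  obtain ⟨P, hPe⟩ : ∃ P, P = q ^ 4 - q ^ 2 + 1 := ⟨_, rfl⟩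
  have hP13 : 13 ≤ P := by
    obtain ⟨k, hk⟩ := Nat.exists_eq_add_of_le hq.two_le
    have h4 : q ^ 4 = q ^ 2 * q ^ 2 := by ring
    have h5 : 4 ≤ q ^ 2 := by
      have := Nat.pow_le_pow_left hq.two_le 2
      omega
    have h6 : q ^ 2 * q ^ 2 ≥ 4 * q ^ 2 := Nat.mul_le_mul_right _ h5
    omega
  have hcard : Nat.card ↥(Subgroup.zpowers x0) = P := by rw [Nat.card_zpowers, hx0, hPe]
  have hA : IsCC (Subgroup.zpowers x0) := by
    refine ⟨fun h => ?_, hx0c⟩
    rw [h, Subgroup.card_bot] at hcard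
    omega
  have hr := Nat.minFac_prime (n := P) (by omega)
  have hrP : P.minFac ∣ P := Nat.minFac_dvd P
  have hr7 : 7 ≤ P.minFac := by
    obtain ⟨h2, h3⟩ := H83.TorD4.prime_ne hr (by rw [← hPe]; exact hrP)
    have h5' := prime_ne_five hr (by rw [← hPe]; exact hrP)
    have h4 := hr.two_le
    have h5 : P.minFac ≠ 4 := by
      intro h
      rw [h] at hr
      revert hr
      decide
    have h6 : P.minFac ≠ 6 := by
      intro h
      rw [h] at hr
      revert hr
      decide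
    omega
  have hidx : (Subgroup.zpowers x0).index ≡ 4 [MOD P.minFac] := by
    refine H83.RowD4.index_mod hq.one_lt.le (m := P.minFac) (by rw [← hPe]; exact hrP) ?_
    rw [← S1067.result hq hK, ← hPe, ← hcard, mul_comm]
    exact (Subgroup.zpowers x0).card_mul_index
  have hN := H83.Eight.CC.card_normalizer hA inferInstance hr (by rw [hcard]; exact hrP) hidx (by norm_num) (by omega)
  have hlen : len (Subgroup.zpowers x0) = 4 := by
    have h1 := len_mul_card (Subgroup.zpowers x0)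
    rw [hN] at h1
    exact Nat.eq_of_mul_eq_mul_right Nat.card_pos h1
  -- the element of prime order
  have hx0' : orderOf x0 = P := by rw [hx0, hPe]
  have hox : orderOf (x0 ^ (orderOf x0 / P.minFac)) = P.minFac :=
    orderOf_pow_orderOf_div (orderOf_pos x0).ne' (by rw [hx0']; exact hrP)
  set x := x0 ^ (orderOf x0 / P.minFac) with hx
  have hxA : x ∈ Subgroup.zpowers x0 := Subgroup.pow_mem _ (Subgroup.mem_zpowers x0) _
  have hx1 : x ≠ 1 := by
    intro h
    rw [h, orderOf_one] at hox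
    exact hr.one_lt.ne hox
  have hZ : Subgroup.zpowers x ≤ Subgroup.zpowers x0 := by
    rw [Subgroup.zpowers_le]
    exact hxA
  obtain ⟨y, hyZ, hy1, hy⟩ := exists_not_conj hA hlen hxA hx1 hZ (by rw [Nat.card_zpowers, hox]; omega)
  have hoy : orderOf y = P.minFac := by
    have h1 : orderOf y ∣ P.minFac := by
      rw [← hox, ← Nat.card_zpowers x]
      exact Subgroup.orderOf_dvd_natCard _ hyZ
    rcases (Nat.dvd_prime hr).1 h1 with h2 | h2
    · exact absurd (orderOf_eq_one_iff.1 h2) hy1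
    · exact h2
  exact ⟨_, x, y, by rw [hcard, hPe], hA, hlen, hxA, hZ hyZ, by rw [hox]; exact hr, by rw [hox]; exact hr7,
    by rw [hox, hoy], hy⟩

end Cfsg.Agent.H830.TD
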